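import Cfsg.Agent.H833.EPX.KPow
import Cfsg.Prelude.Def_KGroupFacts

/-!
# S5745, socle `T ^ 2`: the generic row by `E_pi` (helper510)

* `card_H_le` : `|H| ≤ k! |Aut T| ^ k`;
* `le_index` : a lower bound for `|G : H|` from a class bound;
* `row_sq` : `k = 2`, no two-point stabiliser is a `2`-group: class bounds `c r` with
  `∑ a_r ^ 4 / ((r - 1) c_r) < 1 - 1 / n₀`, `a_r ≥ #{φ ∈ Aut T : φ ^ r = 1}`, are a contradiction;
* `card_aut_le` : `#{φ ∈ Aut T : φ ^ r = 1} ≤ #{t ∈ T : t ^ r = 1}` if `r` does not divide `|Out T|`.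
-/

set_option autoImplicit false

namespace Cfsg.Agent.H510.EPX

open Subgroup Cfsg.Agent.H284 Cfsg.Agent.H209.EPX Cfsg.Agent.H742.EX Cfsg.Agent.H833.EPX

section gen

variable {G : Type*} [Group G] {H N : Subgroup G} {T : Type} [Group T] {k : ℕ} {e : N ≃* (Fin k → T)}

theorem finite_T [Finite G] (h : EPS H N e) : Finite T := by
  have : Finite (Fin k → T) := Finite.of_equiv _ e.toEquiv
  exact Finite.of_injective (fun t : T => (fun _ => t : Fin k → T)) (fun a b hab => congrFun hab ⟨0, h.pos⟩)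

theorem card_H_le [Finite G] (h : EPS H N e) : Nat.card H ≤ k.factorial * Nat.card (MulAut T) ^ k := by
  classical
  have hfin : Finite T := finite_T h
  have := h.simple
  have hT := EPS_not_comm h
  have hex : ∀ x : H, ∃ p : Equiv.Perm (Fin k) × (Fin k → MulAut T),
      ∀ t i, bet h.toNIn e x.1 x.2 t (p.1 i) = p.2 i (t i) := by
    intro x
    obtain ⟨σ, φ, hφ⟩ := Cfsg.Agent.H936.AutPow.exists_form hT (bet h.toNIn e x.1 x.2)
    exact ⟨(σ, φ), hφ⟩
  choose Φ hΦ using hex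
  have h1 : k.factorial * Nat.card (MulAut T) ^ k = Nat.card (Equiv.Perm (Fin k) × (Fin k → MulAut T)) := by
    rw [Nat.card_prod, Nat.card_fun, Nat.card_eq_fintype_card (α := Fin k), Fintype.card_fin,
      Nat.card_eq_fintype_card (α := Equiv.Perm (Fin k)), Fintype.card_perm, Fintype.card_fin]
  rw [h1]
  refine Nat.card_le_card_of_injective Φ fun x y hxy => ?_
  apply Subtype.ext
  apply bet_inj h x.2 y.2
  apply MulEquiv.ext
  intro t
  funext j
  obtain ⟨i, rfl⟩ := (Φ x).1.surjective j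
  rw [hΦ x t i]
  have h2 := hΦ y t i
  rw [← hxy] at h2
  exact h2.symm

theorem cG_le_card [Finite G] (x : G) : cG x ≤ Nat.card G := by
  rw [cG]
  exact Nat.card_le_card_of_injective (fun y : {y : G // IsConj x y} => y.1) Subtype.val_injective

/-- an element of `N` of order `s` -/
theorem exists_order [Finite G] (h : EPS H N e) {s : ℕ} (hs : s.Prime) (hd : s ∣ Nat.card T) :
    ∃ x ∈ N, orderOf x = s := by
  classical
  have := Fact.mk hs
  have hfin : Finite T := finite_T h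
  obtain ⟨t, ht⟩ := exists_prime_orderOf_dvd_card' s hd
  refine ⟨(e.symm (Pi.mulSingle ⟨0, h.pos⟩ t) : N), (e.symm _).2, ?_⟩
  rw [Subgroup.orderOf_coe, MulEquiv.orderOf_eq]
  have h1 := orderOf_injective (MonoidHom.mulSingle (fun _ : Fin k => T) ⟨0, h.pos⟩)
    (Pi.mulSingle_injective (M := fun _ : Fin k => T) ⟨0, h.pos⟩) t
  rw [← ht, ← h1]
  rfl

theorem le_index [Finite G] (h : EPS H N e) {s c n : ℕ} (hs : s.Prime) (hd : s ∣ Nat.card T)
    (hc : ∀ x : G, orderOf x = s → c ≤ cG x) (hB : n * (k.factorial * Nat.card (MulAut T) ^ k) ≤ c) :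
    n ≤ H.index := by
  have hfin : Finite T := finite_T h
  obtain ⟨x, -, hx⟩ := exists_order h hs hd
  have h1 : c ≤ Nat.card G := (hc x hx).trans (cG_le_card x)
  have h2 := card_H_le h
  have h3 : Nat.card H * H.index = Nat.card G := H.card_mul_index
  set B := k.factorial * Nat.card (MulAut T) ^ k with hBdef
  have hpos : 0 < B := lt_of_lt_of_le Nat.card_pos h2
  by_contra hcon
  push Not at hcon
  have h4 : Nat.card G < n * B := by
    rw [← h3]
    calc Nat.card H * H.index ≤ B * H.index := Nat.mul_le_mul_right _ h2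
      _ < B * n := Nat.mul_lt_mul_of_pos_left hcon hpos
      _ = n * B := mul_comm _ _
  omega

/-- the inequality `E_pi` with a precise constant -/
theorem dead [Finite G] (n₀ : ℕ) (hn0 : 0 < n₀) (hn : n₀ ≤ H.index) (π : Finset ℕ) (hπ : ∀ r ∈ π, r.Prime)
    (hM : ∀ g ∉ H, ∃ r ∈ π, r ∣ Nat.card (H ⊓ cj g H : Subgroup G)) (N c : ℕ → ℕ)
    (hN : ∀ r ∈ π, (el H r).card ≤ N r) (hc0 : ∀ r ∈ π, 0 < c r)
    (hc : ∀ r ∈ π, ∀ x ∈ H, orderOf x = r → c r ≤ cG x)
    (hS : ∑ r ∈ π, ((N r : ℚ) ^ 2 / (((r : ℚ) - 1) * c r)) < 1 - 1 / (n₀ : ℚ)) : False := by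
  have h1 := e_pi_crude H π hπ hM N c hN hc0 hc
  have h0 : (0 : ℚ) < n₀ := by exact_mod_cast hn0
  have h2 : (n₀ : ℚ) ≤ H.index := by exact_mod_cast hn
  have h3 : (H.index : ℚ) * ∑ r ∈ π, ((N r : ℚ) ^ 2 / (((r : ℚ) - 1) * c r)) < H.index * (1 - 1 / n₀) :=
    mul_lt_mul_of_pos_left hS (by linarith)
  have h4 : (1 : ℚ) ≤ H.index * (1 / n₀) := by
    rw [mul_one_div, le_div_iff₀ h0]
    linarith
  nlinarith

open Cfsg in
/-- automorphisms of order `r` are inner -/
theorem card_aut_le [Finite T] (hT : IsSimpleGroup T) (hna : ∃ a b : T, a * b ≠ b * a) {r : ℕ} (hr : r.Prime)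
    (hO : ¬ r ∣ Nat.card (Out T)) : Nat.card {φ : MulAut T // φ ^ r = 1} ≤ Nat.card {t : T // t ^ r = 1} := by
  classical
  have hcen : Subgroup.center T = ⊥ := by
    rcases (inferInstance : (Subgroup.center T).Normal).eq_bot_or_eq_top with h | h
    · exact h
    · exfalso
      obtain ⟨a, b, hab⟩ := hna
      have : a ∈ Subgroup.center T := h ▸ Subgroup.mem_top a
      exact hab ((Subgroup.mem_center_iff.1 this b).symm)
  have hex : ∀ φ : {φ : MulAut T // φ ^ r = 1}, ∃ t : {t : T // t ^ r = 1}, MulAut.conj t.1 = φ.1 := by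
    rintro ⟨φ, hφ⟩
    have h1 : ((φ : MulAut T) : Out T) ^ r = 1 := by
      rw [← QuotientGroup.mk_pow, hφ]; rfl
    have h2 : ((φ : MulAut T) : Out T) = 1 := by
      have h3 := orderOf_dvd_of_pow_eq_one h1
      rcases (Nat.dvd_prime hr).1 h3 with h4 | h4
      · exact orderOf_eq_one_iff.1 h4
      · exact absurd (h4 ▸ orderOf_dvd_natCard _) hO
    have h5 : φ ∈ Inn T := (QuotientGroup.eq_one_iff φ).1 h2
    obtain ⟨t, ht⟩ := h5
    refine ⟨⟨t, ?_⟩, ht⟩
    have h6 : MulAut.conj (t ^ r) = 1 := by rw [map_pow]; change (MulAut.conj t) ^ r = 1; rw [ht]; exact hφ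
    have h7 : t ^ r ∈ Subgroup.center T := by
      rw [Subgroup.mem_center_iff]
      intro g
      have h8 := DFunLike.congr_fun h6 g
      rw [MulAut.conj_apply, MulAut.one_apply, mul_inv_eq_iff_eq_mul] at h8
      exact h8.symm
    rwa [hcen, Subgroup.mem_bot] at h7
  choose f hf using hex
  refine Nat.card_le_card_of_injective f fun x y hxy => ?_
  apply Subtype.ext
  rw [← hf x, ← hf y, hxy]

end gen

section two

variable {G : Type*} [Group G] [Finite G] {H N : Subgroup G} {T : Type} [Group T] {e : N ≃* (Fin 2 → T)}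

/-- an odd prime divisor of `|H|` divides `|Aut T|` -/
theorem dvd_aut (h : EPS H N e) {r : ℕ} (hr : r.Prime) (hr2 : r ≠ 2) (hd : r ∣ Nat.card H) :
    r ∣ Nat.card (MulAut T) := by
  have := Fact.mk hr
  have hfin : Finite T := finite_T h
  obtain ⟨x, hx⟩ := exists_prime_orderOf_dvd_card' r hd
  have hxr : (x : G) ^ r = 1 := by
    have := pow_orderOf_eq_one x
    rw [hx] at this
    exact congrArg Subtype.val this
  obtain ⟨φ, h1, h2⟩ := exists_comp h (perm_two (hr.odd_of_ne_two hr2)) x.2 hxr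
  have h3 : ∃ i, φ i ≠ 1 := by
    by_contra hcon
    push Not at hcon
    have h4 : bet h.toNIn e x.1 x.2 = bet h.toNIn e 1 (one_mem H) := by
      rw [bet_one]
      apply MulEquiv.ext
      intro t
      funext i
      rw [h2, hcon i]
      rfl
    have h5 : (x : G) = 1 := bet_inj h x.2 (one_mem H) h4
    have h6 : x = 1 := Subtype.ext h5
    rw [h6, orderOf_one] at hx
    exact hr.one_lt.ne hx
  obtain ⟨i, hi⟩ := h3
  have h4 : orderOf (φ i) = r := orderOf_eq_prime (h1 i) hi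
  rw [← h4]
  exact orderOf_dvd_natCard _

/-- **the generic row for `k = 2`** -/
theorem row_sq (h : EPS H N e)
    (hM : ∀ g ∉ H, ∃ r ∈ (Nat.card H).primeFactors.erase 2, r ∣ Nat.card (H ⊓ cj g H : Subgroup G))
    (π : Finset ℕ) (hπp : ∀ r ∈ π, r.Prime) (hπ2 : ∀ r ∈ π, r ≠ 2)
    (hπ : ∀ r : ℕ, r.Prime → r ≠ 2 → r ∣ Nat.card (MulAut T) → r ∈ π) (a c : ℕ → ℕ)
    (ha : ∀ r ∈ π, Nat.card {φ : MulAut T // φ ^ r = 1} ≤ a r) (hc0 : ∀ r ∈ π, 0 < c r)
    (hc : ∀ r ∈ π, ∀ x : G, orderOf x = r → c r ≤ cG x) (n₀ : ℕ) (hn0 : 0 < n₀) (hn : n₀ ≤ H.index)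
    (hS : ∑ r ∈ π, (((a r ^ 2 : ℕ) : ℚ) ^ 2 / (((r : ℚ) - 1) * c r)) < 1 - 1 / (n₀ : ℚ)) : False := by
  refine dead n₀ hn0 hn π hπp ?_ (fun r => a r ^ 2) c ?_ hc0 (fun r hr x _ hx => hc r hr x hx) hS
  · intro g hg
    obtain ⟨r, hr, hrd⟩ := hM g hg
    rw [Finset.mem_erase, Nat.mem_primeFactors] at hr
    exact ⟨r, hπ r hr.2.1 hr.1 (dvd_aut h hr.2.1 hr.1 hr.2.2.1), hrd⟩
  · intro r hr
    exact (card_el_le_sq h ((hπp r hr).odd_of_ne_two (hπ2 r hr))).trans (Nat.pow_le_pow_left (ha r hr) 2)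

end two

end Cfsg.Agent.H510.EPX
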